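import Cfsg.Agent.H266.KGV.Main
import Cfsg.Agent.H540.PermStep

/-!
# The transitive case and the class number bound
-/

set_option autoImplicit false

namespace Cfsg.Agent.H266.KGV

open MulAction Cfsg.Agent.H540.ClassNum Cfsg.Agent.H539.BlockRed
open Cfsg.Agent.H553.PermClass (resHom)

theorem six_bound {n : ℕ} (hn : 1 ≤ n) : 96 ^ n * 6 ^ (n - 1) ≤ 144 * (25 ^ (n - 1)) ^ 2 := by
  obtain ⟨k, rfl⟩ := Nat.exists_eq_add_of_le' hn
  rw [Nat.add_sub_cancel]
  induction k with
  | zero => norm_num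
  | succ k ih =>
    have ih' := ih (by omega)
    have e1 : (96 : ℕ) ^ (k + 1 + 1) * 6 ^ (k + 1) = 96 ^ (k + 1) * 6 ^ k * 576 := by
      rw [pow_succ 96 (k + 1), pow_succ 6 k]; ring
    have e2 : 144 * ((25 : ℕ) ^ (k + 1)) ^ 2 = 144 * (25 ^ k) ^ 2 * 625 := by
      rw [pow_succ 25 k]; ring
    rw [e1, e2]
    exact Nat.mul_le_mul ih' (by norm_num)

section Coset

variable {G X ι : Type} [Group G] [Finite G] [Finite X] [Finite ι]
  {a : G →* Equiv.Perm X} {b : G →* Equiv.Perm ι} {π : X → ι}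

/-- number of classes in a coset that moves the coarse block `c` -/
theorem coset_bound (S : Sys a b π) (h5 : ¬ 5 ∣ Nat.card G) {n : ℕ} (hn : 1 ≤ n) (hB : Bnd n)
    {κ : Type} [Finite κ] (ρ : ι → κ) (q : G →* Equiv.Perm κ)
    (heq : ∀ g i, ρ (b g i) = q g (ρ i)) (hcard : ∀ c, Nat.card {i // ρ i = c} = n)
    [Fintype q.ker] (x : G) (c : κ) (hc : q x c ≠ c) :
    ∑ y : q.ker, cent (x * y) q.ker ≤
      (96 ^ n * 6 ^ (n - 1) * (16 * 25 ^ (n - 1)) ^ (Nat.card κ - 2)) * Nat.card q.ker := by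
  classical
  let O : κ → Prop := fun c' => Equiv.Perm.SameCycle (q x) c c'
  let G' : Subgroup G :=
    { carrier := {g | ∀ c', O (q g c') ↔ O c'}
      one_mem' := fun c' => by rw [map_one]; rfl
      mul_mem' := fun {g h} hg hh c' => by
        rw [map_mul, Equiv.Perm.mul_apply, hg, hh]
      inv_mem' := fun {g} hg c' => by
        have h1 := hg (q g⁻¹ c')
        have h2 : q g (q g⁻¹ c') = c' := by
          rw [map_inv]
          exact (q g).apply_symm_apply c'
        rw [h2] at h1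
        exact h1.symm }
  have hG' : ∀ g ∈ G', ∀ c', O (q g c') ↔ O c' := fun g hg => hg
  have hBG : q.ker ≤ G' := by
    intro g hg c'
    have h1 : q g = 1 := hg
    rw [h1]
    rfl
  have hx : x ∈ G' := fun c' => Equiv.Perm.sameCycle_apply_right
  have hp : ∀ (g : G') i, ¬ O (ρ (b (G'.subtype g) i)) ↔ ¬ O (ρ i) := by
    intro g i
    rw [heq]
    exact not_congr (hG' _ g.2 _)
  let F := rst S G'.subtype (fun i => ¬ O (ρ i)) hp
  have hp1 : ∀ (g : q.ker) i, ρ (b (q.ker.subtype g) i) = c ↔ ρ i = c := by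
    intro g i
    have h1 : q (q.ker.subtype g) = 1 := g.2
    rw [heq, h1]
    rfl
  let r := rst S q.ker.subtype (fun i => ρ i = c) hp1
  have hr : Nat.card r.range ≤ 96 ^ n * 6 ^ (n - 1) := by
    have h1 := (rst_sys S q.ker.subtype (fun i => ρ i = c) hp1 (MonoidHom.id r.range)
      (fun _ _ h => h)).card_le (by rw [hcard]; exact hn)
      (Prm.not_dvd_range (Prm.not_dvd_of_injective h5 q.ker.subtype Subtype.coe_injective) r)
    rw [hcard] at h1
    exact h1
  -- elements of `B` trivial outside the orbit, commuting with `x y`, are determined by the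
  -- action on the block `c`
  have key : ∀ y ∈ q.ker, ∀ u (hu : u ∈ q.ker), F ⟨u, hBG hu⟩ = 1 → Commute (x * y) u →
      r ⟨u, hu⟩ = 1 → u = 1 := by
    intro y hy u hu hF hcomm hru
    refine S.eq_one fun p => ?_
    by_cases hO : O (ρ (π p))
    · obtain ⟨k, hk⟩ := hO
      have hqy : q (x * y) = q x := by
        have h1 : q y = 1 := hy
        rw [map_mul, h1, mul_one]
      -- the point in the block `c`
      have h2 : ρ (π (a ((x * y) ^ k)⁻¹ p)) = c := by
        rw [S.eqv, heq, map_inv, map_zpow, hqy, ← hk]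
        exact ((q x) ^ k).symm_apply_apply c
      have h3 : a u (a ((x * y) ^ k)⁻¹ p) = a ((x * y) ^ k)⁻¹ p := by
        have h4 := congrArg Prod.fst hru
        exact congrArg (fun σ : Equiv.Perm {z : X // ρ (π z) = c} => ((σ ⟨_, h2⟩ : _) : X)) h4
      have h5 : Commute ((x * y) ^ k)⁻¹ u := (hcomm.zpow_left k).inv_left
      have h6 : a ((x * y) ^ k)⁻¹ (a u p) = a ((x * y) ^ k)⁻¹ p := by
        rw [← Equiv.Perm.mul_apply, ← map_mul, h5.eq, map_mul, Equiv.Perm.mul_apply]
        exact h3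
      exact (a ((x * y) ^ k)⁻¹).injective h6
    · have h4 := congrArg Prod.fst hF
      exact congrArg (fun σ : Equiv.Perm {z : X // ¬ O (ρ (π z))} => ((σ ⟨p, hO⟩ : _) : X)) h4
  have h1 := Cnt.coset_le' q.ker G' hBG F x hx (96 ^ n * 6 ^ (n - 1)) (by
    intro y hy
    refine le_trans ?_ hr
    refine Nat.card_le_card_of_injective (fun u => (⟨r ⟨u.1, u.2.1⟩, ⟨u.1, u.2.1⟩, rfl⟩ : r.range)) ?_
    rintro ⟨u, hu, hu1, hu2⟩ ⟨v, hv, hv1, hv2⟩ huv
    have h2 : r ⟨u, hu⟩ = r ⟨v, hv⟩ := congrArg Subtype.val huv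
    have h3 : u⁻¹ * v = 1 := by
      refine key y hy (u⁻¹ * v) (q.ker.mul_mem (q.ker.inv_mem hu) hv) ?_
        (hu2.inv_right.mul_right hv2) ?_
      · have h4 : (⟨u⁻¹ * v, hBG (q.ker.mul_mem (q.ker.inv_mem hu) hv)⟩ : G') =
            (⟨u, hBG hu⟩ : G')⁻¹ * ⟨v, hBG hv⟩ := rfl
        rw [h4, map_mul, map_inv, hu1, hv1, inv_one, one_mul]
      · have h4 : (⟨u⁻¹ * v, q.ker.mul_mem (q.ker.inv_mem hu) hv⟩ : q.ker) =
            (⟨u, hu⟩ : q.ker)⁻¹ * ⟨v, hv⟩ := rfl
        rw [h4, map_mul, map_inv, h2, inv_mul_cancel]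
    exact Subtype.ext (inv_mul_eq_one.1 h3))
  refine h1.trans (Nat.mul_le_mul_right _ (Nat.mul_le_mul_left _ ?_))
  -- the group induced outside the orbit
  set L := (q.ker.subgroupOf G').map F with hL
  have hLle : L ≤ F.range := by
    rintro _ ⟨g, -, rfl⟩
    exact ⟨g, rfl⟩
  have SL := rst_sys S G'.subtype (fun i => ¬ O (ρ i)) hp (Subgroup.inclusion hLle)
    (Subgroup.inclusion_injective hLle)
  have hfinL : Finite L := Finite.of_injective _ (Subgroup.inclusion_injective hLle)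
  let κ' : Type := {c' // ¬ O c'}
  have := Fintype.ofFinite κ'
  have h2 := SL.ker_le (κ := κ') (fun i => (⟨ρ i.1, i.2⟩ : κ')) (by
      rintro ⟨_, g, hg, rfl⟩ ⟨i, hi⟩
      apply Subtype.ext
      change ρ (b g.1 i) = ρ i
      have h3 : q g.1 = 1 := hg
      rw [heq, h3]
      rfl) (16 * 25 ^ (n - 1)) (by
      rintro ⟨c', hc'⟩ K _ _ a' b' SK hK
      refine hB _ _ _ a' b' _ SK ?_ hK
      rw [← hcard c']
      apply Nat.card_congr
      exact
        { toFun := fun i => ⟨i.1.1, congrArg Subtype.val i.2⟩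
          invFun := fun i => ⟨⟨i.1, by rw [i.2]; exact hc'⟩, Subtype.ext i.2⟩
          left_inv := fun i => rfl
          right_inv := fun i => rfl }) ?_
  · refine h2.trans (Nat.pow_le_pow_right (by positivity) ?_)
    -- the orbit has at least two elements
    have h3 := Prm.card_split O
    have h4 : 2 ≤ Nat.card {c' // O c'} := by
      rw [Nat.succ_le_iff, Finite.one_lt_card_iff_nontrivial]
      refine ⟨⟨⟨c, Equiv.Perm.SameCycle.refl _ _⟩, ⟨q x c, ?_⟩, fun h => hc ?_⟩⟩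
      · exact Equiv.Perm.sameCycle_apply_right.2 (Equiv.Perm.SameCycle.refl _ _)
      · exact (congrArg Subtype.val h).symm
    have h5 : Nat.card κ' = Nat.card {c' // ¬ O c'} := rfl
    omega
  · exact Prm.not_dvd_of_injective (Prm.not_dvd_range (Prm.not_dvd_of_injective h5 G'.subtype
      Subtype.coe_injective) F) (Subgroup.inclusion hLle) (Subgroup.inclusion_injective hLle)

end Coset

/-- transitive groups -/
theorem bnd_trans (hprim : ∀ (m : ℕ), 7 ≤ m → ∀ S : Subgroup (Equiv.Perm (Fin m)),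
      MulAction.IsPreprimitive S (Fin m) → ¬ 5 ∣ Nat.card S → Nat.card (ConjClasses S) ^ 2 ≤ 2 ^ m)
    {t : ℕ} (ih : ∀ m, 1 ≤ m → m < t → Bnd m)
    {G X ι : Type} [Group G] [Finite G] [Finite X] [Finite ι]
    (a : G →* Equiv.Perm X) (b : G →* Equiv.Perm ι) (π : X → ι) (S : Sys a b π)
    (ht : Nat.card ι = t) (h5 : ¬ 5 ∣ Nat.card G) (h2 : 2 ≤ t) (htr : ∀ i j, ∃ g, b g i = j) :
    Nat.card (ConjClasses G) ≤ 16 * 25 ^ (t - 1) := by
  classical
  obtain ⟨κ, hκ, ρ, q, hs, heq, hpr, hk⟩ := Prm.exists_prim t b ht htr h2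
  have hne : Nonempty κ := (Nat.card_pos_iff.1 (by omega)).1
  obtain ⟨c0⟩ := hne
  have := Fintype.ofFinite κ
  have := Fintype.ofFinite q.ker
  obtain ⟨n, hcard, htn⟩ : ∃ n, (∀ c, Nat.card {i // ρ i = c} = n) ∧ t = Nat.card κ * n := by
    refine ⟨Nat.card {i // ρ i = c0}, ?_, ?_⟩
    · intro c
      have e1 := Prm.card_fiber b htr ρ q hs heq c
      have e2 := Prm.card_fiber b htr ρ q hs heq c0
      rw [e1] at e2
      exact Nat.eq_of_mul_eq_mul_left (by omega) e2
    · rw [← ht]; exact Prm.card_fiber b htr ρ q hs heq c0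
  have hn1 : 1 ≤ n := by
    rcases Nat.eq_zero_or_pos n with h0 | h0
    · rw [h0] at htn; omega
    · exact h0
  have hnt : n < t := by rw [htn]; nlinarith
  have hB := ih n hn1 hnt
  obtain ⟨E, hE⟩ : ∃ E, E = 25 ^ (n - 1) := ⟨_, rfl⟩
  have hE1 : 1 ≤ E := by rw [hE]; exact Nat.one_le_pow _ _ (by norm_num)
  -- the kernel
  have hker : Nat.card (ConjClasses q.ker) ≤ (16 * E) ^ Nat.card κ := by
    refine (S.comp q.ker.subtype Subtype.coe_injective).ker_le ρ ?_ _ ?_ ?_
    · intro g i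
      have hg : q (q.ker.subtype g) = 1 := g.2
      change ρ (b (q.ker.subtype g) i) = ρ i
      rw [heq, hg]
      rfl
    · intro c K _ _ a' b' SK hK
      rw [hE]
      exact hB _ _ _ a' b' _ SK (hcard c) hK
    · exact Prm.not_dvd_of_injective h5 q.ker.subtype Subtype.coe_injective
  have hqr : ¬ 5 ∣ Nat.card q.range := Prm.not_dvd_range h5 q
  -- the target
  have htarget : 16 * 25 ^ (t - 1) = 16 * (E ^ Nat.card κ * 25 ^ (Nat.card κ - 1)) := by
    rw [hE, ← pow_mul, ← pow_add]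
    congr 2
    rw [htn]
    obtain ⟨n', hn'⟩ := Nat.exists_eq_add_of_le' hn1
    rw [hn', Nat.add_sub_cancel]
    have e3 : Nat.card κ * (n' + 1) = n' * Nat.card κ + Nat.card κ := by ring
    rw [e3]
    omega
  rcases Nat.lt_or_ge (Nat.card κ) 7 with h7 | h7
  · -- few coarse blocks
    have hcoset := Cnt.le_add q.ker
      (96 ^ n * 6 ^ (n - 1) * (16 * 25 ^ (n - 1)) ^ (Nat.card κ - 2)) (by
        intro x hx
        have hqx : q x ≠ 1 := hx
        obtain ⟨c, hc⟩ : ∃ c, q x c ≠ c := by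
          by_contra hcon
          push Not at hcon
          exact hqx (Equiv.ext hcon)
        exact coset_bound S h5 hn1 hB ρ q heq hcard x c hc)
    rw [card_conjClasses_congr (QuotientGroup.quotientKerEquivRange q), ← hE] at hcoset
    have h6 := six_bound hn1
    rw [← hE] at h6
    obtain ⟨s, hs'⟩ : ∃ s, s = 96 ^ n * 6 ^ (n - 1) := ⟨_, rfl⟩
    rw [← hs'] at h6 hcoset
    rw [htarget]
    refine hcoset.trans ?_
    rcases Prm.k_le q.range hpr hk (by omega) hqr with ⟨hm, hkk⟩ | ⟨hm, hkk⟩ | ⟨hm, hkk⟩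
    · rw [hm] at hker ⊢
      have h8 : Nat.card (ConjClasses q.range) - 1 ≤ 1 := by omega
      have h9 : s * (16 * E) ^ (2 - 2) * (Nat.card (ConjClasses q.range) - 1) ≤
          (144 * E ^ 2) * (16 * E) ^ (2 - 2) * 1 :=
        Nat.mul_le_mul (Nat.mul_le_mul_right _ h6) h8
      refine (Nat.add_le_add hker h9).trans (le_of_eq ?_)
      norm_num
      ring
    · rw [hm] at hker ⊢
      have h8 : Nat.card (ConjClasses q.range) - 1 ≤ 2 := by omega
      have h9 : s * (16 * E) ^ (3 - 2) * (Nat.card (ConjClasses q.range) - 1) ≤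
          (144 * E ^ 2) * (16 * E) ^ (3 - 2) * 2 :=
        Nat.mul_le_mul (Nat.mul_le_mul_right _ h6) h8
      refine (Nat.add_le_add hker h9).trans ?_
      have e : (16 * E) ^ 3 + 144 * E ^ 2 * (16 * E) ^ (3 - 2) * 2 = 8704 * E ^ 3 := by
        norm_num
        ring
      rw [e]
      have e' : 16 * (E ^ 3 * 25 ^ (3 - 1)) = 10000 * E ^ 3 := by norm_num; ring
      rw [e']
      exact Nat.mul_le_mul_right _ (by norm_num)
    · rw [hm] at hker ⊢
      have h8 : Nat.card (ConjClasses q.range) - 1 ≤ 5 := by omega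
      have h9 : s * (16 * E) ^ (4 - 2) * (Nat.card (ConjClasses q.range) - 1) ≤
          (144 * E ^ 2) * (16 * E) ^ (4 - 2) * 5 :=
        Nat.mul_le_mul (Nat.mul_le_mul_right _ h6) h8
      refine (Nat.add_le_add hker h9).trans ?_
      have e : (16 * E) ^ 4 + 144 * E ^ 2 * (16 * E) ^ (4 - 2) * 5 = 249856 * E ^ 4 := by
        norm_num
        ring
      rw [e]
      have e' : 16 * (E ^ 4 * 25 ^ (4 - 1)) = 250000 * E ^ 4 := by norm_num; ring
      rw [e']
      exact Nat.mul_le_mul_right _ (by norm_num)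
  · -- many coarse blocks
    have hP : H540.PermStep.Prim 5 (Nat.card κ) := by
      intro T hT hT5
      rw [H540.PermStep.pr_large h7]
      exact hprim _ h7 T hT hT5
    have hsq := hP.of_subgroup rfl q.range hpr hqr
    rw [H540.PermStep.pr_large h7] at hsq
    rw [htarget]
    have h8 : Nat.card (ConjClasses G) ^ 2 ≤ ((16 * E) ^ Nat.card κ) ^ 2 * 2 ^ Nat.card κ := by
      refine (Nat.pow_le_pow_left (le_ker_mul_range q) 2).trans ?_
      rw [mul_pow]
      exact Nat.mul_le_mul (Nat.pow_le_pow_left hker 2) hsq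
    have h9 : ∀ m, 7 ≤ m → 512 ^ m ≤ 256 * (625 : ℕ) ^ (m - 1) := by
      intro m hm
      induction m, hm using Nat.le_induction with
      | base => norm_num
      | succ m hm ih' =>
        have e1 : m + 1 - 1 = m - 1 + 1 := by omega
        rw [e1, pow_succ, pow_succ, ← mul_assoc]
        exact Nat.mul_le_mul ih' (by norm_num)
    have h10 : ((16 * E) ^ Nat.card κ) ^ 2 * 2 ^ Nat.card κ ≤
        (16 * (E ^ Nat.card κ * 25 ^ (Nat.card κ - 1))) ^ 2 := by
      have e1 : ((16 * E) ^ Nat.card κ) ^ 2 * 2 ^ Nat.card κ =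
          512 ^ Nat.card κ * (E ^ Nat.card κ) ^ 2 := by
        have e2 : (512 : ℕ) ^ Nat.card κ = (16 ^ Nat.card κ) ^ 2 * 2 ^ Nat.card κ := by
          rw [← pow_mul, mul_comm (Nat.card κ) 2, pow_mul, ← mul_pow]
          norm_num
        rw [e2, mul_pow]
        ring
      have e3 : (16 * (E ^ Nat.card κ * 25 ^ (Nat.card κ - 1))) ^ 2 =
          256 * 625 ^ (Nat.card κ - 1) * (E ^ Nat.card κ) ^ 2 := by
        have e4 : (625 : ℕ) ^ (Nat.card κ - 1) = (25 ^ (Nat.card κ - 1)) ^ 2 := by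
          rw [← pow_mul, mul_comm (Nat.card κ - 1) 2, pow_mul]
          norm_num
        rw [e4]
        ring
      rw [e1, e3]
      exact Nat.mul_le_mul_right _ (h9 _ h7)
    exact (Nat.pow_le_pow_iff_left (by norm_num : (2 : ℕ) ≠ 0)).1 (h8.trans h10)

/-- **the class number bound** -/
theorem bnd (hprim : ∀ (m : ℕ), 7 ≤ m → ∀ S : Subgroup (Equiv.Perm (Fin m)),
      MulAction.IsPreprimitive S (Fin m) → ¬ 5 ∣ Nat.card S → Nat.card (ConjClasses S) ^ 2 ≤ 2 ^ m)
    (t : ℕ) (ht1 : 1 ≤ t) : Bnd t := by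
  induction t using Nat.strong_induction_on with
  | _ t ih =>
  rcases Nat.lt_or_ge t 2 with h2 | h2
  · have : t = 1 := by omega
    rw [this]
    exact bnd_one
  · intro G X ι _ _ _ _ a b π S ht h5
    have ih' : ∀ m, 1 ≤ m → m < t → Bnd m := fun m h1 h => ih m h h1
    by_cases htr : ∀ i j, ∃ g, b g i = j
    · exact bnd_trans hprim ih' a b π S ht h5 h2 htr
    · push Not at htr
      obtain ⟨i0, j0, hij⟩ := htr
      exact bnd_intrans ih' a b π S ht h5 hij

end Cfsg.Agent.H266.KGV
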