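import Cfsg.Agent.H960.KGV.Defs
import Cfsg.Agent.H266.KGV.Trans

/-!
# Linear groups with blocks of order `25`

`five` (task 2021 of helper960).
-/

set_option autoImplicit false

namespace Cfsg.Agent.H266.KGV

open Cfsg.Agent.H540.ClassNum Cfsg.Agent.H960.KGV

section

variable {p : ℕ} {V : Type} [AddCommGroup V] [Module (ZMod p) V]
  {G : Subgroup (V ≃ₗ[ZMod p] V)} {ι : Type} {W : ι → Submodule (ZMod p) V}

theorem blk_injective (hW : Blk G W) : Function.Injective W := hW.indep.injective hW.ne_bot

/-- the image of a block -/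
noncomputable def nxt (hW : Blk G W) (g : G) (i : ι) : ι := Classical.choose (hW.perm g g.2 i)

theorem nxt_spec (hW : Blk G W) (g : G) (i : ι) :
    (W i).map ((g : V ≃ₗ[ZMod p] V)).toLinearMap = W (nxt hW g i) :=
  Classical.choose_spec (hW.perm g g.2 i)

/-- the action on the blocks -/
noncomputable def actEnd (hW : Blk G W) : G →* Function.End ι where
  toFun g i := nxt hW g i
  map_one' := by
    funext i
    apply blk_injective hW
    rw [← nxt_spec hW]
    exact Submodule.map_id _
  map_mul' g h := by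
    funext i
    apply blk_injective hW
    change W (nxt hW (g * h) i) = W (nxt hW g (nxt hW h i))
    rw [← nxt_spec hW, ← nxt_spec hW, ← nxt_spec hW, ← Submodule.map_comp]
    rfl

/-- the action on the blocks -/
noncomputable def actB (hW : Blk G W) : G →* Equiv.Perm ι := (actEnd hW).toHomPerm

theorem actB_spec (hW : Blk G W) (g : G) (i : ι) :
    (W i).map ((g : V ≃ₗ[ZMod p] V)).toLinearMap = W (actB hW g i) :=
  nxt_spec hW g i

/-- the points: pairs of a block and a vector of this block -/
abbrev Pt (W : ι → Submodule (ZMod p) V) : Type := {x : ι × V // x.2 ∈ W x.1}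

/-- the action on the points -/
noncomputable def actA (hW : Blk G W) : G →* Equiv.Perm (Pt W) :=
  MonoidHom.toHomPerm
    { toFun := fun g x => ⟨(actB hW g x.1.1, (g : V ≃ₗ[ZMod p] V) x.1.2), by
        change (g : V ≃ₗ[ZMod p] V) x.1.2 ∈ W (actB hW g x.1.1)
        rw [← actB_spec hW g x.1.1]
        exact Submodule.mem_map_of_mem (f := ((g : V ≃ₗ[ZMod p] V)).toLinearMap) x.2⟩
      map_one' := by
        funext x
        apply Subtype.ext
        refine Prod.ext ?_ rfl
        change actB hW 1 x.1.1 = x.1.1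
        rw [map_one]
        rfl
      map_mul' := by
        intro g h
        funext x
        apply Subtype.ext
        refine Prod.ext ?_ rfl
        change actB hW (g * h) x.1.1 = actB hW g (actB hW h x.1.1)
        rw [map_mul]
        rfl }

theorem actA_fst (hW : Blk G W) (g : G) (x : Pt W) :
    (actA hW g x).1.1 = actB hW g x.1.1 := rfl

theorem actA_snd (hW : Blk G W) (g : G) (x : Pt W) :
    (actA hW g x).1.2 = (g : V ≃ₗ[ZMod p] V) x.1.2 := rfl

/-- the points of a block -/
def blkEquiv (W : ι → Submodule (ZMod p) V) (i : ι) : W i ≃ {x : Pt W // x.1.1 = i} where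
  toFun w := ⟨⟨(i, w), w.2⟩, rfl⟩
  invFun x := ⟨x.1.1.2, by
    have h := x.1.2
    rw [x.2] at h
    exact h⟩
  left_inv w := rfl
  right_inv := by
    rintro ⟨⟨⟨j, v⟩, hv⟩, hj⟩
    change j = i at hj
    subst hj
    rfl

/-- linear automorphisms of a block as permutations of its points -/
def linPerm (W : ι → Submodule (ZMod p) V) (i : ι) :
    (W i ≃ₗ[ZMod p] W i) →* Equiv.Perm {x : Pt W // x.1.1 = i} where
  toFun h := (blkEquiv W i).permCongr h.toEquiv
  map_one' := by
    apply Equiv.ext
    intro x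
    exact (blkEquiv W i).apply_symm_apply x
  map_mul' h k := by
    apply Equiv.ext
    intro x
    change blkEquiv W i (h (k ((blkEquiv W i).symm x))) =
      blkEquiv W i (h ((blkEquiv W i).symm (blkEquiv W i (k ((blkEquiv W i).symm x)))))
    rw [Equiv.symm_apply_apply]

theorem linPerm_injective (W : ι → Submodule (ZMod p) V) (i : ι) :
    Function.Injective (linPerm W i) := by
  intro h k hk
  have h1 : h.toEquiv = k.toEquiv := (blkEquiv W i).permCongr.injective hk
  exact LinearEquiv.toEquiv_injective h1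

theorem sys (hW : Blk G W) (h96 : ∀ i, Nat.card (ind G (W i)) ≤ 96)
    (h16 : ∀ i, ∀ P : Subgroup (ind G (W i)), Nat.card (ConjClasses P) ≤ 16) :
    Sys (actA hW) (actB hW) (fun x : Pt W => x.1.1) where
  eqv := fun g x => rfl
  inj := by
    rw [injective_iff_map_eq_one]
    intro g hg
    apply Subtype.ext
    rw [Subgroup.coe_one]
    have h1 : iSup W ≤ LinearMap.ker (((g : V ≃ₗ[ZMod p] V)).toLinearMap - LinearMap.id) := by
      refine iSup_le fun i w hw => ?_
      rw [LinearMap.mem_ker, LinearMap.sub_apply, LinearMap.id_apply, sub_eq_zero]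
      have h2 := congrArg (fun σ : Equiv.Perm (Pt W) => (σ ⟨(i, w), hw⟩).1.2) hg
      exact h2
    rw [hW.sup] at h1
    ext v
    have h2 := h1 (Submodule.mem_top (x := v))
    rw [LinearMap.mem_ker, LinearMap.sub_apply, LinearMap.id_apply, sub_eq_zero] at h2
    exact h2
  surj := fun i => ⟨⟨(i, 0), (W i).zero_mem⟩, rfl⟩
  small := by
    intro i
    let P := (ind G (W i)).map (linPerm W i)
    have eP : ind G (W i) ≃* P := (ind G (W i)).equivMapOfInjective _ (linPerm_injective W i)
    refine ⟨P, ?_, ?_, ?_⟩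
    · rw [← Nat.card_congr eP.toEquiv]
      exact h96 i
    · intro M
      have h4 := h16 i (M.comap eP.toMonoidHom)
      have h5 : M.comap eP.toMonoidHom ≃* M := by
        have h6 : (M.comap eP.toMonoidHom).map eP.toMonoidHom = M :=
          Subgroup.map_comap_eq_self_of_surjective eP.surjective M
        exact ((M.comap eP.toMonoidHom).equivMapOfInjective _ eP.injective).trans
          (MulEquiv.subgroupCongr h6)
      rw [← card_conjClasses_congr h5]
      exact h4
    · intro g hg
      have h1 : (W i).map ((g : V ≃ₗ[ZMod p] V)).toLinearMap = W i := by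
        rw [actB_spec hW g i, hg]
      let h : W i ≃ₗ[ZMod p] W i :=
        ((g : V ≃ₗ[ZMod p] V).submoduleMap (W i)).trans (LinearEquiv.ofEq _ _ h1)
      have hh : ∀ w : W i, (g : V ≃ₗ[ZMod p] V) (w : V) = (h w : V) := fun w => rfl
      refine ⟨linPerm W i h, ⟨h, ⟨g, g.2, hh⟩, rfl⟩, ?_⟩
      rintro ⟨⟨⟨j, v⟩, hv⟩, hj⟩
      change j = i at hj
      subst hj
      apply Subtype.ext
      refine Prod.ext ?_ rfl
      rw [actA_fst]
      exact hg.symm

end

/-- the order of the space -/
theorem card_eq_pow {p : ℕ} {V : Type} [AddCommGroup V] [Module (ZMod p) V]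
    {ι : Type} [Finite ι] {W : ι → Submodule (ZMod p) V} (h1 : iSupIndep W) (h2 : iSup W = ⊤)
    {c : ℕ} (hc : ∀ i, Nat.card (W i) = c) : Nat.card V = c ^ Nat.card ι := by
  classical
  have := Fintype.ofFinite ι
  have h3 : DirectSum.IsInternal W :=
    (DirectSum.isInternal_submodule_iff_iSupIndep_and_iSup_eq_top W).2 ⟨h1, h2⟩
  have e1 := LinearEquiv.ofBijective (DirectSum.coeLinearMap W) h3
  have e2 := DirectSum.linearEquivFunOnFintype (ZMod p) ι (fun i => W i)
  rw [← Nat.card_congr e1.toEquiv, Nat.card_congr e2.toEquiv, Nat.card_pi,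
    Finset.prod_congr rfl fun i _ => hc i, Finset.prod_const, Finset.card_univ,
    Nat.card_eq_fintype_card]

/-- **Blocks of order `25`** -/
theorem five {V : Type} [AddCommGroup V] [Module (ZMod 5) V] [Finite V]
    (G : Subgroup (V ≃ₗ[ZMod 5] V)) (hG : ¬ 5 ∣ Nat.card G) {ι : Type} [Finite ι] [Nonempty ι]
    {W : ι → Submodule (ZMod 5) V} (hW : Blk G W) (h25 : ∀ i, Nat.card (W i) = 25)
    (h96 : ∀ i, Nat.card (ind G (W i)) ≤ 96)
    (h16 : ∀ i, ∀ P : Subgroup (ind G (W i)), Nat.card (ConjClasses P) ≤ 16)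
    (hprim : ∀ (m : ℕ), 7 ≤ m → ∀ S : Subgroup (Equiv.Perm (Fin m)),
      MulAction.IsPreprimitive S (Fin m) → ¬ 5 ∣ Nat.card S →
      Nat.card (ConjClasses S) ^ 2 ≤ 2 ^ m) :
    25 * Nat.card (ConjClasses G) ≤ 16 * Nat.card V := by
  have hfin : Finite (V ≃ₗ[ZMod 5] V) :=
    Finite.of_injective (fun e : V ≃ₗ[ZMod 5] V => (e : V → V)) DFunLike.coe_injective
  have hι : 1 ≤ Nat.card ι := Nat.card_pos
  have h1 := bnd hprim (Nat.card ι) hι G (Pt W) ι _ _ _ (sys hW h96 h16) rfl hG
  rw [card_eq_pow hW.indep hW.sup h25]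
  obtain ⟨k, hk⟩ := Nat.exists_eq_add_of_le' hι
  rw [hk, Nat.add_sub_cancel] at h1
  rw [hk, pow_succ]
  omega

end Cfsg.Agent.H266.KGV
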