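import Cfsg.Agent.H266.KGV.Sys

/-!
# Class numbers of groups acting on a fibred set with small groups on the fibres

* `Sys.card_le` : `|G| ≤ 96 ^ n * 6 ^ (n - 1)`;
* `Sys.k_le` : `k(G) ≤ 16 * 25 ^ (n - 1)`.
-/

set_option autoImplicit false

namespace Cfsg.Agent.H266.KGV

open MulAction Cfsg.Agent.H540.ClassNum Cfsg.Agent.H539.BlockRed
open Cfsg.Agent.H553.PermClass (resHom)

section

variable {G X ι : Type} [Group G] [Finite G] [Finite X] [Finite ι]
  {a : G →* Equiv.Perm X} {b : G →* Equiv.Perm ι} {π : X → ι}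

/-- **order** -/
theorem Sys.card_le (S : Sys a b π) (h1 : 1 ≤ Nat.card ι) (h5 : ¬ 5 ∣ Nat.card G) :
    Nat.card G ≤ 96 ^ Nat.card ι * 6 ^ (Nat.card ι - 1) := by
  classical
  have := Fintype.ofFinite ι
  rw [Prm.card_ker_mul_range b]
  refine Nat.mul_le_mul ?_ (Prm.card_le _ b.range.subtype Subtype.coe_injective rfl h1
    (Prm.not_dvd_range h5 b))
  let f : ∀ i : ι, b.ker →* Equiv.Perm {x // π x = i} := fun i =>
    resHom (a.comp b.ker.subtype) (fun x => π x = i) (fun g x => by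
      have hg : b (g : G) = 1 := g.2
      change π (a (g : G) x) = i ↔ π x = i
      rw [S.eqv, hg]
      rfl)
  refine Prm.card_le_prod f _ ?_ ?_
  · intro i
    obtain ⟨P, h2, -, h3⟩ := S.small i
    refine le_trans (Subgroup.card_le_of_le ?_) h2
    rintro _ ⟨g, rfl⟩
    have hg : b (g : G) = 1 := g.2
    obtain ⟨σ, hσ, h4⟩ := h3 g (by rw [hg]; rfl)
    have h6 : f i g = σ := by
      ext x
      rw [h4 x]
      rfl
    rw [h6]
    exact hσ
  · intro g hg
    apply Subtype.ext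
    refine S.eq_one fun x => ?_
    exact congrArg (fun σ : Equiv.Perm {y // π y = π x} => ((σ ⟨x, rfl⟩ : _) : X)) (hg (π x))

/-- **groups fixing the coarse blocks** -/
theorem Sys.ker_le (S : Sys a b π) {κ : Type} [Fintype κ] (ρ : ι → κ)
    (hρ : ∀ g i, ρ (b g i) = ρ i) (C : ℕ)
    (hC : ∀ c, ∀ {K : Type} [Group K] [Finite K] (a' : K →* Equiv.Perm {x // ρ (π x) = c})
      (b' : K →* Equiv.Perm {i // ρ i = c}),
      Sys a' b' (fun x => (⟨π x, x.2⟩ : {i // ρ i = c})) → ¬ 5 ∣ Nat.card K →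
      Nat.card (ConjClasses K) ≤ C)
    (h5 : ¬ 5 ∣ Nat.card G) : Nat.card (ConjClasses G) ≤ C ^ Nat.card κ := by
  classical
  have hp : ∀ c : κ, ∀ (g : G) (i : ι), ρ (b ((MonoidHom.id G) g) i) = c ↔ ρ i = c := by
    intro c g i
    rw [MonoidHom.id_apply, hρ]
  have h1 := family (N := G) (ι := κ)
    (fun c => (rst S (MonoidHom.id G) (fun i => ρ i = c) (hp c)).rangeRestrict) (fun _ => C) ?_ ?_
  · rw [Finset.prod_const, Finset.card_univ, ← Nat.card_eq_fintype_card] at h1
    exact h1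
  · intro c M
    refine hC c _ _ (rst_sys S (MonoidHom.id G) (fun i => ρ i = c) (hp c) M.subtype
      Subtype.coe_injective) ?_
    exact Prm.not_dvd_of_injective (Prm.not_dvd_range h5 _) M.subtype Subtype.coe_injective
  · intro g hg
    refine S.eq_one fun x => ?_
    have h2 := congrArg Subtype.val (hg (ρ (π x)))
    have h3 := congrArg Prod.fst h2
    exact congrArg (fun σ : Equiv.Perm {y : X // ρ (π y) = ρ (π x)} => ((σ ⟨x, rfl⟩ : _) : X)) h3

end

/-- the class number bound for systems with `n` small blocks -/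
def Bnd (n : ℕ) : Prop :=
  ∀ (G X ι : Type) [Group G] [Finite G] [Finite X] [Finite ι]
    (a : G →* Equiv.Perm X) (b : G →* Equiv.Perm ι) (π : X → ι), Sys a b π → Nat.card ι = n →
    ¬ 5 ∣ Nat.card G → Nat.card (ConjClasses G) ≤ 16 * 25 ^ (n - 1)

/-- one block -/
theorem bnd_one : Bnd 1 := by
  intro G X ι _ _ _ _ a b π S hn h5
  have hsub : Subsingleton ι := Finite.card_le_one_iff_subsingleton.1 hn.le
  have hne : Nonempty ι := (Nat.card_pos_iff.1 (by omega)).1
  obtain ⟨i⟩ := hne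
  obtain ⟨P, -, h2, h3⟩ := S.small i
  let f : G →* Equiv.Perm {x // π x = i} := resHom a (fun x => π x = i) (fun g x =>
    ⟨fun _ => hsub.elim _ _, fun _ => hsub.elim _ _⟩)
  have hf : Function.Injective f := by
    rw [injective_iff_map_eq_one]
    intro g hg
    refine S.eq_one fun x => ?_
    exact congrArg (fun σ : Equiv.Perm {y // π y = i} =>
      ((σ ⟨x, hsub.elim _ _⟩ : _) : X)) hg
  have hfP : ∀ g, f g ∈ P := by
    intro g
    obtain ⟨σ, hσ, h4⟩ := h3 g (hsub.elim _ _)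
    have h6 : f g = σ := by
      ext x
      rw [h4 x]
      rfl
    rw [h6]
    exact hσ
  let f' : G →* P := f.codRestrict P hfP
  have hf' : Function.Injective f' := fun x y hxy => hf (congrArg Subtype.val hxy)
  rw [card_conjClasses_congr (MonoidHom.ofInjective hf')]
  simpa using h2 f'.range

/-- intransitive groups -/
theorem bnd_intrans {t : ℕ} (ih : ∀ m, 1 ≤ m → m < t → Bnd m)
    {G X ι : Type} [Group G] [Finite G] [Finite X] [Finite ι]
    (a : G →* Equiv.Perm X) (b : G →* Equiv.Perm ι) (π : X → ι) (S : Sys a b π)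
    (ht : Nat.card ι = t) (h5 : ¬ 5 ∣ Nat.card G) {i0 j0 : ι} (hij : ∀ g, b g i0 ≠ j0) :
    Nat.card (ConjClasses G) ≤ 16 * 25 ^ (t - 1) := by
  classical
  let p : ι → Prop := fun i => ∃ g, b g i0 = i
  have hp : ∀ g i, p (b g i) ↔ p i := by
    intro g i
    constructor
    · rintro ⟨k, hk⟩
      refine ⟨g⁻¹ * k, ?_⟩
      rw [map_mul, Equiv.Perm.mul_apply, hk, map_inv]
      exact (b g).symm_apply_apply i
    · rintro ⟨k, hk⟩
      refine ⟨g * k, ?_⟩
      rw [map_mul, Equiv.Perm.mul_apply, hk]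
  have hp1 : ∀ g i, p (b ((MonoidHom.id G) g) i) ↔ p i := hp
  have hsum := Prm.card_split p
  have e1 : 1 ≤ Nat.card {x // p x} := by
    have : Nonempty {x // p x} := ⟨⟨i0, 1, by rw [map_one]; rfl⟩⟩
    exact Nat.card_pos
  have e2 : 1 ≤ Nat.card {x // ¬ p x} := by
    have : Nonempty {x // ¬ p x} := ⟨⟨j0, fun ⟨g, hg⟩ => hij g hg⟩⟩
    exact Nat.card_pos
  let r := rst S (MonoidHom.id G) p hp1
  have k1 : Nat.card (ConjClasses r.range) ≤ 16 * 25 ^ (Nat.card {x // p x} - 1) :=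
    ih _ e1 (by omega) _ _ _ _ _ _ (rst_sys S (MonoidHom.id G) p hp1 (MonoidHom.id r.range)
      (fun _ _ h => h)) rfl (Prm.not_dvd_range h5 r)
  have hp2 : ∀ (g : r.ker) i, ¬ p (b (r.ker.subtype g) i) ↔ ¬ p i :=
    fun g i => not_congr (hp _ i)
  let r' := rst S r.ker.subtype (fun i => ¬ p i) hp2
  have hr' : Function.Injective r'.rangeRestrict := by
    rw [injective_iff_map_eq_one]
    intro g hg
    apply Subtype.ext
    refine S.eq_one fun x => ?_
    by_cases hx : p (π x)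
    · have h3 : r g.1 = 1 := g.2
      have h4 := congrArg Prod.fst h3
      exact congrArg (fun e : Equiv.Perm {x : X // p (π x)} => ((e ⟨x, hx⟩ : _) : X)) h4
    · have h3 := congrArg Subtype.val hg
      have h4 := congrArg Prod.fst h3
      exact congrArg (fun e : Equiv.Perm {x : X // ¬ p (π x)} => ((e ⟨x, hx⟩ : _) : X)) h4
  have k2 : Nat.card (ConjClasses r.ker) ≤ 16 * 25 ^ (Nat.card {x // ¬ p x} - 1) :=
    ih _ e2 (by omega) _ _ _ _ _ _ (rst_sys S r.ker.subtype (fun i => ¬ p i) hp2 r'.rangeRestrict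
      hr') rfl (Prm.not_dvd_of_injective h5 r.ker.subtype Subtype.coe_injective)
  refine (le_ker_mul_range r).trans ((Nat.mul_le_mul k2 k1).trans ?_)
  obtain ⟨u, hu⟩ := Nat.exists_eq_add_of_le' e1
  obtain ⟨v, hv⟩ := Nat.exists_eq_add_of_le' e2
  have htt : t - 1 = u + v + 1 := by omega
  rw [hu, hv, htt, Nat.add_sub_cancel, Nat.add_sub_cancel, pow_succ, pow_add]
  nlinarith [Nat.zero_le (25 ^ u * 25 ^ v)]

end Cfsg.Agent.H266.KGV
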