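import Cfsg.Agent.H539.BlockRed
import Cfsg.Agent.S0725
import Cfsg.Agent.S0144
import Cfsg.Agent.H540.SmallSym
import Cfsg.Agent.H553.SolvPerm
import Cfsg.Agent.H717.SmallClass

/-!
# Permutation groups of order prime to `5`

* `exists_prim`: a maximal block system;
* `card_le`: a permutation group of degree `n` and order prime to `5` has order at most `6 ^ (n-1)`;
* `k_le`: class numbers of primitive groups of degree at most `6`.
-/

set_option autoImplicit false

namespace Cfsg.Agent.H266.KGV.Prm

open MulAction Cfsg.Agent.H540.ClassNum Cfsg.Agent.H539.BlockRed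
open Cfsg.Agent.H553.PermClass (resHom)

/-- a maximal block system of a transitive group -/
theorem exists_prim : ∀ (t : ℕ) {G ι : Type} [Group G] [Finite ι] (b : G →* Equiv.Perm ι),
    Nat.card ι = t → (∀ i j, ∃ g, b g i = j) → 2 ≤ t →
    ∃ (κ : Type) (_ : Finite κ) (ρ : ι → κ) (q : G →* Equiv.Perm κ), Function.Surjective ρ ∧
      (∀ g i, ρ (b g i) = q g (ρ i)) ∧ IsPreprimitive q.range κ ∧ 2 ≤ Nat.card κ := by
  intro t
  induction t using Nat.strong_induction_on with
  | _ t ih =>
  intro G ι _ _ b ht htr h2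
  by_cases hp : IsPreprimitive b.range ι
  · exact ⟨ι, inferInstance, id, b, Function.surjective_id, fun _ _ => rfl, hp, by omega⟩
  · have : Nontrivial ι := (Finite.one_lt_card_iff_nontrivial (α := ι)).1 (by omega)
    rcases exists_setoid (G := b.range) (α := ι) hp with h | ⟨r, hr, hbot, htop⟩
    · exfalso
      obtain ⟨i, j, hij⟩ := exists_pair_ne ι
      obtain ⟨g, hg⟩ := htr i j
      have h1 := h ⟨b g, g, rfl⟩
      have h3 : b g = 1 := congrArg Subtype.val h1
      rw [h3] at hg
      exact hij hg
    · have hfin : Finite (Quotient r) := Quotient.finite r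
      have hlt : Nat.card (Quotient r) < t := by
        rw [← ht]
        refine lt_of_le_of_ne (Nat.card_le_card_of_surjective _ Quotient.mk_surjective) fun heq => ?_
        apply hbot
        have hinj := ((Nat.bijective_iff_surjective_and_card (Quotient.mk r)).2
          ⟨Quotient.mk_surjective, heq.symm⟩).1
        rw [eq_bot_iff]
        intro x y hxy
        exact hinj (Quotient.sound hxy)
      have h2' : 2 ≤ Nat.card (Quotient r) := by
        by_contra hlt2
        apply htop
        rw [eq_top_iff]
        intro x y _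
        have h1 : Nat.card (Quotient r) ≤ 1 := by omega
        have h3 : Subsingleton (Quotient r) := Finite.card_le_one_iff_subsingleton.1 h1
        exact Quotient.exact (h3.elim (Quotient.mk r x) (Quotient.mk r y))
      let b' : G →* Equiv.Perm (Quotient r) := (quotHom r hr).comp b.rangeRestrict
      have hb' : ∀ g i, b' g (Quotient.mk r i) = Quotient.mk r (b g i) := fun g i => rfl
      obtain ⟨κ, hκ, ρ, q, hs, heq, hprim, hk⟩ := ih _ hlt b' rfl (by
        intro x y
        obtain ⟨i, rfl⟩ := Quotient.exists_rep x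
        obtain ⟨j, rfl⟩ := Quotient.exists_rep y
        obtain ⟨g, hg⟩ := htr i j
        exact ⟨g, by rw [hb', hg]⟩) h2'
      refine ⟨κ, hκ, ρ ∘ Quotient.mk r, q, hs.comp Quotient.mk_surjective, ?_, hprim, hk⟩
      intro g i
      change ρ (Quotient.mk r (b g i)) = _
      rw [← hb', heq]
      rfl

/-- all blocks have the same size -/
theorem card_fiber {G ι κ : Type} [Group G] [Finite ι] [Finite κ] (b : G →* Equiv.Perm ι)
    (htr : ∀ i j, ∃ g, b g i = j) (ρ : ι → κ) (q : G →* Equiv.Perm κ)
    (hs : Function.Surjective ρ) (heq : ∀ g i, ρ (b g i) = q g (ρ i)) (c : κ) :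
    Nat.card ι = Nat.card κ * Nat.card {i // ρ i = c} := by
  classical
  have := Fintype.ofFinite κ
  have h1 : ∀ c' : κ, Nat.card {i // ρ i = c'} = Nat.card {i // ρ i = c} := by
    intro c'
    obtain ⟨i, rfl⟩ := hs c
    obtain ⟨j, rfl⟩ := hs c'
    obtain ⟨g, hg⟩ := htr j i
    have hq : q g (ρ j) = ρ i := by rw [← heq, hg]
    refine Nat.card_congr (Equiv.subtypeEquiv (b g) fun a => ?_)
    rw [heq, ← hq]
    exact (q g).injective.eq_iff.symm
  have h2 : Nat.card ι = ∑ c' : κ, Nat.card {i // ρ i = c'} := by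
    rw [← Nat.card_sigma]
    exact Nat.card_congr (Equiv.sigmaFiberEquiv ρ).symm
  rw [h2, Finset.sum_congr rfl fun c' _ => h1 c', Finset.sum_const, Finset.card_univ,
    ← Nat.card_eq_fintype_card, smul_eq_mul]

theorem card_ker_mul_range {G H : Type*} [Group G] [Group H] (f : G →* H) :
    Nat.card G = Nat.card f.ker * Nat.card f.range := by
  rw [Subgroup.card_eq_card_quotient_mul_card_subgroup f.ker,
    Nat.card_congr (QuotientGroup.quotientKerEquivRange f).toEquiv, mul_comm]

/-- order of a subdirect product -/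
theorem card_le_prod {N : Type*} [Group N] {κ : Type*} [Fintype κ] {H : κ → Type*}
    [∀ c, Group (H c)] (f : ∀ c, N →* H c) (C : ℕ) [∀ c, Finite (f c).range]
    (hC : ∀ c, Nat.card (f c).range ≤ C)
    (hker : ∀ x : N, (∀ c, f c x = 1) → x = 1) : Nat.card N ≤ C ^ Nat.card κ := by
  classical
  have h1 : Nat.card N ≤ Nat.card (∀ c, (f c).range) := by
    refine Nat.card_le_card_of_injective (fun x c => (⟨f c x, x, rfl⟩ : (f c).range)) ?_
    intro x y hxy
    have h2 : x * y⁻¹ = 1 := by
      apply hker
      intro c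
      have h3 : f c x = f c y := congrArg Subtype.val (congrFun hxy c)
      rw [map_mul, map_inv, h3, mul_inv_cancel]
    rw [← mul_inv_eq_one]
    exact h2
  refine h1.trans ?_
  rw [Nat.card_pi]
  refine (Finset.prod_le_prod' fun c _ => hC c).trans ?_
  rw [Finset.prod_const, Finset.card_univ, Nat.card_eq_fintype_card]

theorem not_dvd_of_injective {p : ℕ} {G H : Type*} [Group G] [Group H] [Finite G]
    (hp : ¬ p ∣ Nat.card G) (f : H →* G) (hf : Function.Injective f) : ¬ p ∣ Nat.card H := fun h =>
  hp (h.trans (Subgroup.card_dvd_of_injective f hf))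

theorem not_dvd_range {p : ℕ} {G H : Type*} [Group G] [Group H] [Finite G]
    (hp : ¬ p ∣ Nat.card G) (f : G →* H) : ¬ p ∣ Nat.card f.range := fun h =>
  hp (h.trans (Subgroup.card_range_dvd f))

/-- primitive groups -/
theorem card_le_prim {κ : Type} [Finite κ] (S : Subgroup (Equiv.Perm κ)) (hS : IsPreprimitive S κ)
    (h2 : 1 ≤ Nat.card κ) (h5 : ¬ 5 ∣ Nat.card S) : Nat.card S ≤ 6 ^ (Nat.card κ - 1) := by
  classical
  have := Fintype.ofFinite κ
  rcases Nat.lt_or_ge (Nat.card κ) 5 with hlt | hge
  · have h1 : Nat.card S ≤ (Nat.card κ).factorial := by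
      rw [← Nat.card_perm]
      exact Subgroup.card_le_card_group S
    refine h1.trans ?_
    generalize Nat.card κ = n at *
    interval_cases n <;> decide
  · have hA : ¬ alternatingGroup κ ≤ S := by
      intro hA
      apply h5
      refine dvd_trans ?_ (Subgroup.card_dvd_of_le hA)
      have h3 : Nontrivial κ := (Finite.one_lt_card_iff_nontrivial (α := κ)).1 (by omega)
      have h4 : 2 * Nat.card (alternatingGroup κ) = (Nat.card κ).factorial := by
        rw [two_mul_nat_card_alternatingGroup, Nat.card_perm]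
      have h6 : 5 ∣ 2 * Nat.card (alternatingGroup κ) := by
        rw [h4]
        exact (Nat.Prime.dvd_factorial Nat.prime_five).2 hge
      exact (Nat.Coprime.dvd_of_dvd_mul_left (by norm_num) h6)
    have h1 := S0725.result S hS hA
    rw [← Nat.card_eq_fintype_card] at h1
    refine h1.trans ?_
    obtain ⟨k, hk⟩ := Nat.exists_eq_add_of_le hge
    rw [hk]
    clear h1 hk
    induction k with
    | zero => norm_num
    | succ k ih =>
      have e1 : (4 : ℕ) ^ (5 + (k + 1)) = 4 ^ (5 + k) * 4 := by rw [← pow_succ]; rfl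
      have e2 : (6 : ℕ) ^ (5 + (k + 1) - 1) = 6 ^ (5 + k - 1) * 6 := by
        rw [← pow_succ]; congr 1
        omega
      rw [e1, e2]
      exact Nat.mul_le_mul ih (by norm_num)

theorem card_split {ι : Type} [Finite ι] (p : ι → Prop) :
    Nat.card {x // p x} + Nat.card {x // ¬ p x} = Nat.card ι := by
  classical
  rw [← Nat.card_sum]
  exact Nat.card_congr (Equiv.sumCompl p)

/-- **Order of permutation groups of order prime to `5`.** -/
theorem card_le : ∀ (t : ℕ) {G ι : Type} [Group G] [Finite G] [Finite ι] (b : G →* Equiv.Perm ι),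
    Function.Injective b → Nat.card ι = t → 1 ≤ t → ¬ 5 ∣ Nat.card G →
    Nat.card G ≤ 6 ^ (t - 1) := by
  intro t
  induction t using Nat.strong_induction_on with
  | _ t ih =>
  intro G ι _ _ _ b hb ht h1 h5
  classical
  rcases Nat.lt_or_ge t 2 with h2 | h2
  · have h3 : t = 1 := by omega
    rw [h3]
    have h4 : Subsingleton ι := Finite.card_le_one_iff_subsingleton.1 (by omega)
    have h6 : Subsingleton G := hb.subsingleton
    have h7 : Nat.card G ≤ 1 := Finite.card_le_one_iff_subsingleton.2 h6
    exact h7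
  by_cases htr : ∀ i j, ∃ g, b g i = j
  · obtain ⟨κ, hκ, ρ, q, hs, heq, hprim, hk⟩ := exists_prim t b ht htr h2
    have hne : Nonempty κ := (Nat.card_pos_iff.1 (by omega)).1
    obtain ⟨c0⟩ := hne
    have := Fintype.ofFinite κ
    set n := Nat.card {i // ρ i = c0} with hn
    have hcard : ∀ c, Nat.card {i // ρ i = c} = n := by
      intro c
      have e1 := card_fiber b htr ρ q hs heq c
      have e2 := card_fiber b htr ρ q hs heq c0
      rw [e1] at e2
      exact Nat.eq_of_mul_eq_mul_left (by omega) e2
    have htn : t = Nat.card κ * n := by rw [← ht]; exact card_fiber b htr ρ q hs heq c0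
    have hn1 : 1 ≤ n := by
      rcases Nat.eq_zero_or_pos n with h0 | h0
      · rw [h0] at htn; omega
      · exact h0
    have hnt : n < t := by rw [htn]; nlinarith
    have hq : Nat.card q.range ≤ 6 ^ (Nat.card κ - 1) :=
      card_le_prim q.range hprim (by omega) (not_dvd_range h5 q)
    let f : ∀ c : κ, q.ker →* Equiv.Perm {i // ρ i = c} := fun c =>
      resHom (b.comp q.ker.subtype) (fun i => ρ i = c) (fun g i => by
        have hg : q (g : G) = 1 := g.2
        change ρ (b (g : G) i) = c ↔ ρ i = c
        rw [heq, hg]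
        rfl)
    have hker : Nat.card q.ker ≤ (6 ^ (n - 1)) ^ Nat.card κ := by
      refine card_le_prod f _ ?_ ?_
      · intro c
        refine ih n hnt (f c).range.subtype Subtype.coe_injective (hcard c) hn1 ?_
        exact not_dvd_range (not_dvd_of_injective h5 q.ker.subtype Subtype.coe_injective) _
      · intro x hx
        apply Subtype.ext
        apply hb
        rw [Subgroup.coe_one, map_one]
        ext i
        have h7 := congrArg (fun σ : Equiv.Perm {i' // ρ i' = ρ i} => ((σ ⟨i, rfl⟩ : _) : ι))
          (hx (ρ i))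
        exact h7
    rw [card_ker_mul_range q]
    refine (Nat.mul_le_mul hker hq).trans ?_
    rw [← pow_mul, ← pow_add]
    apply le_of_eq
    congr 1
    rw [htn]
    obtain ⟨n', hn'⟩ := Nat.exists_eq_add_of_le' hn1
    rw [hn', Nat.add_sub_cancel]
    have e3 : Nat.card κ * (n' + 1) = n' * Nat.card κ + Nat.card κ := by ring
    rw [e3]
    omega
  · push Not at htr
    obtain ⟨i0, j0, hij⟩ := htr
    let p : ι → Prop := fun i => ∃ g, b g i0 = i
    have hp : ∀ g i, p (b g i) ↔ p i := by
      intro g i
      constructor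
      · rintro ⟨k, hk⟩
        refine ⟨g⁻¹ * k, ?_⟩
        rw [map_mul, Equiv.Perm.mul_apply, hk, map_inv]
        exact (b g).symm_apply_apply i
      · rintro ⟨k, hk⟩
        refine ⟨g * k, ?_⟩
        rw [map_mul, Equiv.Perm.mul_apply, hk]
    have hp' : ∀ g i, ¬ p (b g i) ↔ ¬ p i := fun g i => not_congr (hp g i)
    let ρ := resHom b p hp
    let ρ' := resHom b (fun i => ¬ p i) hp'
    have hsum := card_split p
    have e1 : 1 ≤ Nat.card {x // p x} := by
      have : Nonempty {x // p x} := ⟨⟨i0, 1, by rw [map_one]; rfl⟩⟩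
      exact Nat.card_pos
    have e2 : 1 ≤ Nat.card {x // ¬ p x} := by
      have : Nonempty {x // ¬ p x} := ⟨⟨j0, fun ⟨g, hg⟩ => hij g hg⟩⟩
      exact Nat.card_pos
    have k1 : Nat.card ρ.range ≤ 6 ^ (Nat.card {x // p x} - 1) :=
      ih _ (by omega) ρ.range.subtype Subtype.coe_injective rfl e1 (not_dvd_range h5 ρ)
    have k2 : Nat.card ρ.ker ≤ 6 ^ (Nat.card {x // ¬ p x} - 1) := by
      refine ih _ (by omega) (ρ'.comp ρ.ker.subtype) ?_ rfl e2
        (not_dvd_of_injective h5 ρ.ker.subtype Subtype.coe_injective)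
      rw [injective_iff_map_eq_one]
      intro g hg
      apply Subtype.ext
      apply hb
      rw [Subgroup.coe_one, map_one]
      ext x
      by_cases hx : p x
      · have h3 : ρ g.1 = 1 := g.2
        exact congrArg (fun e : Equiv.Perm {x // p x} => ((e ⟨x, hx⟩ : _) : ι)) h3
      · exact congrArg (fun e : Equiv.Perm {x // ¬ p x} => ((e ⟨x, hx⟩ : _) : ι)) hg
    rw [card_ker_mul_range ρ]
    refine (Nat.mul_le_mul k2 k1).trans ?_
    rw [← pow_add]
    exact Nat.pow_le_pow_right (by norm_num) (by omega)

/-! ### class numbers in small degree -/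

theorem k_le_of_eq_top {κ : Type} [Finite κ] (S : Subgroup (Equiv.Perm κ))
    (h : Nat.card S = (Nat.card κ).factorial) :
    Nat.card (ConjClasses S) = Nat.card (ConjClasses (Equiv.Perm (Fin (Nat.card κ)))) := by
  have h1 : S = ⊤ := Subgroup.eq_top_of_card_eq S (by rw [h, Nat.card_perm])
  subst h1
  exact card_conjClasses_congr (Subgroup.topEquiv.trans (Finite.equivFin κ).permCongrHom)

/-- class numbers of primitive groups of degree at most `6` and order prime to `5` -/
theorem k_le {κ : Type} [Finite κ] (S : Subgroup (Equiv.Perm κ)) (hS : IsPreprimitive S κ)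
    (h2 : 2 ≤ Nat.card κ) (h6 : Nat.card κ ≤ 6) (h5 : ¬ 5 ∣ Nat.card S) :
    (Nat.card κ = 2 ∧ Nat.card (ConjClasses S) ≤ 2) ∨
    (Nat.card κ = 3 ∧ Nat.card (ConjClasses S) ≤ 3) ∨
    (Nat.card κ = 4 ∧ Nat.card (ConjClasses S) ≤ 6) := by
  classical
  have := Fintype.ofFinite κ
  have hne : Nonempty κ := (Nat.card_pos_iff.1 (by omega)).1
  have hdvd : Nat.card S ∣ (Nat.card κ).factorial := by
    rw [← Nat.card_perm]
    exact Subgroup.card_subgroup_dvd_card S
  have hpos : 0 < Nat.card S := Nat.card_pos
  have hk := card_conjClasses_le_card (G := S)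
  have htop := k_le_of_eq_top S
  have hcases : Nat.card κ = 2 ∨ Nat.card κ = 3 ∨ Nat.card κ = 4 ∨ Nat.card κ = 5 ∨
      Nat.card κ = 6 := by omega
  rcases hcases with h | h | h | h | h
  · left
    refine ⟨h, ?_⟩
    rw [h] at hdvd
    exact hk.trans (Nat.le_of_dvd (by decide) hdvd)
  · right; left
    refine ⟨h, ?_⟩
    rw [h] at hdvd htop
    have h3 : Nat.factorial 3 = 6 := rfl
    rw [h3] at hdvd htop
    by_cases h66 : Nat.card S = 6
    · rw [htop h66]
      exact (H540.SmallSym.card_conjClasses_le_box (by norm_num)).trans (by decide +kernel)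
    · have h7 : Nat.card S ≤ 3 := by
        have h8 := Nat.le_of_dvd (by norm_num) hdvd
        by_contra hcon
        have : Nat.card S = 4 ∨ Nat.card S = 5 := by omega
        rcases this with h9 | h9 <;> rw [h9] at hdvd <;> omega
      omega
  · right; right
    refine ⟨h, ?_⟩
    rw [h] at hdvd htop
    have h3 : Nat.factorial 4 = 24 := rfl
    rw [h3] at hdvd htop
    by_cases h24 : Nat.card S = 24
    · rw [htop h24, H717.SmallClass.conj_sym_four]
      norm_num
    by_cases h12 : Nat.card S = 12
    · have hidx : S.index = 2 := by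
        have h8 := S.index_mul_card
        rw [Nat.card_perm, h, h3, h12] at h8
        omega
      have : Nontrivial κ := (Finite.one_lt_card_iff_nontrivial (α := κ)).1 (by omega)
      have h9 : S = alternatingGroup κ := Equiv.Perm.eq_alternatingGroup_of_index_eq_two hidx
      subst h9
      have e : κ ≃ Fin 4 := Finite.equivFinOfCardEq h
      rw [card_conjClasses_congr (Equiv.altCongrHom e), H717.SmallClass.conj_alt_four]
      norm_num
    by_cases h8 : Nat.card S = 8
    · have hnc : ¬ IsMulCommutative S := fun hc => by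
        have h9 := H553.SolvPerm.card_le_of_comm S hS.toIsPretransitive hc hne
        omega
      have h10 := H553.FiveEight.five_eight hnc
      omega
    · have h7 : Nat.card S ≤ 6 := by
        have h9 := Nat.le_of_dvd (by norm_num) hdvd
        by_contra hcon
        push Not at hcon
        obtain ⟨c, hc⟩ := hdvd
        have hc4 : c < 4 := by nlinarith
        interval_cases c <;> omega
      omega
  · exfalso
    apply h5
    obtain ⟨a⟩ := hne
    have htr := hS.toIsPretransitive
    have h7 := MulAction.index_stabilizer_of_transitive (G := S) a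
    rw [← h, ← h7]
    exact Subgroup.index_dvd_card _
  · exfalso
    rw [h] at hdvd
    have h3 : Nat.factorial 6 = 720 := rfl
    rw [h3] at hdvd
    have h7 : Nat.card S ∣ 2 ^ 4 * 3 ^ 2 := by
      have h8 : Nat.Coprime (Nat.card S) 5 := ((Nat.Prime.coprime_iff_not_dvd Nat.prime_five).2 h5).symm
      refine h8.dvd_of_dvd_mul_right ?_
      have h9 : 2 ^ 4 * 3 ^ 2 * 5 = 720 := by norm_num
      rw [h9]
      exact hdvd
    obtain ⟨x, y, hx, hy, hxy⟩ := (Nat.dvd_mul).1 h7
    obtain ⟨a, -, ha⟩ := (Nat.dvd_prime_pow Nat.prime_two).1 hx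
    obtain ⟨b, -, hb⟩ := (Nat.dvd_prime_pow Nat.prime_three).1 hy
    have hsol : Group.IsSolvable S := S0144.result 2 3 a b Nat.prime_two Nat.prime_three
      (by rw [← hxy, ha, hb])
    obtain ⟨p, d, hp, hd, hα, -⟩ := H553.SolvPerm.card_le_descFactorial S hS h2
    rw [h] at hα
    have h11 : (2 : ℕ) ∣ p ^ d := by rw [← hα]; norm_num
    have h12 : (3 : ℕ) ∣ p ^ d := by rw [← hα]; norm_num
    have h13 := (Nat.prime_dvd_prime_iff_eq Nat.prime_two hp).mp (Nat.prime_two.dvd_of_dvd_pow h11)
    have h14 := (Nat.prime_dvd_prime_iff_eq Nat.prime_three hp).mp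
      (Nat.prime_three.dvd_of_dvd_pow h12)
    omega

end Cfsg.Agent.H266.KGV.Prm
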