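import Cfsg.Agent.H266.KGV.Cnt
import Cfsg.Agent.H266.KGV.Prm

/-!
# Groups acting on a fibred set, with small groups induced on the fibres

`Sys a b π` : a group `G` acts faithfully on `X` and on `ι`, the map `π : X → ι` is equivariant,
and the group induced on each fibre is contained in a group of order at most `96` all of whose
subgroups have at most `16` conjugacy classes.

* `Sys.res` : restriction to a section on a subset of `ι`;
* `Sys.card_le` : `|G| ≤ 96 ^ n * 6 ^ (n - 1)`;
* `Sys.k_le` : `k(G) ≤ 16 * 25 ^ (n - 1)`.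
-/

set_option autoImplicit false

namespace Cfsg.Agent.H266.KGV

open MulAction Cfsg.Agent.H540.ClassNum Cfsg.Agent.H539.BlockRed
open Cfsg.Agent.H553.PermClass (resHom)

/-- a group acting on a fibred set, with small groups induced on the fibres -/
structure Sys {G X ι : Type} [Group G] (a : G →* Equiv.Perm X) (b : G →* Equiv.Perm ι)
    (π : X → ι) : Prop where
  /-- equivariance -/
  eqv : ∀ g x, π (a g x) = b g (π x)
  /-- faithfulness -/
  inj : Function.Injective a
  /-- surjectivity -/
  surj : Function.Surjective π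
  /-- the group induced on each fibre is small -/
  small : ∀ i, ∃ P : Subgroup (Equiv.Perm {x // π x = i}), Nat.card P ≤ 96 ∧
    (∀ M : Subgroup P, Nat.card (ConjClasses M) ≤ 16) ∧
    ∀ g, b g i = i → ∃ σ ∈ P, ∀ x, (σ x : X) = a g x

/-- restriction to a section on a subset -/
theorem Sys.res {G X ι : Type} [Group G] {a : G →* Equiv.Perm X} {b : G →* Equiv.Perm ι}
    {π : X → ι} (S : Sys a b π) (p : ι → Prop) {K : Type} [Group K]
    (a' : K →* Equiv.Perm {x : X // p (π x)}) (b' : K →* Equiv.Perm {i : ι // p i})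
    (hinj : Function.Injective a')
    (h : ∀ k : K, ∃ g : G, (∀ x, (a' k x : X) = a g x) ∧ ∀ i, (b' k i : ι) = b g i) :
    Sys a' b' (fun x => (⟨π x, x.2⟩ : {i // p i})) where
  eqv := by
    intro k x
    obtain ⟨g, h1, h2⟩ := h k
    apply Subtype.ext
    change π (a' k x : X) = _
    rw [h1, h2, S.eqv]
  inj := hinj
  surj := by
    rintro ⟨i, hi⟩
    obtain ⟨x, rfl⟩ := S.surj i
    exact ⟨⟨x, hi⟩, rfl⟩
  small := by
    rintro ⟨i, hi⟩
    obtain ⟨P, h1, h2, h3⟩ := S.small i
    let e : {x // π x = i} ≃ {x : {x : X // p (π x)} // (⟨π x, x.2⟩ : {i // p i}) = ⟨i, hi⟩} :=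
      { toFun := fun x => ⟨⟨x.1, by rw [x.2]; exact hi⟩, Subtype.ext x.2⟩
        invFun := fun x => ⟨x.1.1, congrArg Subtype.val x.2⟩
        left_inv := fun x => rfl
        right_inv := fun x => rfl }
    let Q := P.map e.permCongrHom.toMonoidHom
    have eQ : P ≃* Q := P.equivMapOfInjective _ e.permCongrHom.injective
    refine ⟨Q, ?_, ?_, ?_⟩
    · rw [← Nat.card_congr eQ.toEquiv]
      exact h1
    · intro M
      have h4 := h2 (M.comap eQ.toMonoidHom)
      have h5 : M.comap eQ.toMonoidHom ≃* M := by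
        have h6 : (M.comap eQ.toMonoidHom).map eQ.toMonoidHom = M :=
          Subgroup.map_comap_eq_self_of_surjective eQ.surjective M
        exact ((M.comap eQ.toMonoidHom).equivMapOfInjective _ eQ.injective).trans
          (MulEquiv.subgroupCongr h6)
      rw [← card_conjClasses_congr h5]
      exact h4
    · intro k hk
      obtain ⟨g, h4, h5⟩ := h k
      have hg : b g i = i := by
        rw [← h5 ⟨i, hi⟩, hk]
      obtain ⟨σ, hσ, h6⟩ := h3 g hg
      refine ⟨e.permCongrHom σ, ⟨σ, hσ, rfl⟩, fun x => ?_⟩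
      apply Subtype.ext
      rw [h4]
      exact h6 (e.symm x)

/-- restriction to subgroups -/
theorem Sys.comp {G X ι : Type} [Group G] {a : G →* Equiv.Perm X} {b : G →* Equiv.Perm ι}
    {π : X → ι} (S : Sys a b π) {K : Type} [Group K] (j : K →* G) (hj : Function.Injective j) :
    Sys (a.comp j) (b.comp j) π where
  eqv := fun k x => S.eqv (j k) x
  inj := S.inj.comp hj
  surj := S.surj
  small := fun i => by
    obtain ⟨P, h1, h2, h3⟩ := S.small i
    exact ⟨P, h1, h2, fun k hk => h3 (j k) hk⟩

section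

variable {G X ι : Type} [Group G] {a : G →* Equiv.Perm X} {b : G →* Equiv.Perm ι} {π : X → ι}

theorem Sys.eq_one (S : Sys a b π) {g : G} (h : ∀ x, a g x = x) : g = 1 := by
  apply S.inj
  rw [map_one]
  ext x
  exact h x

/-- restriction of `H → G` to an invariant subset -/
def rst (S : Sys a b π) {H : Type} [Group H] (j : H →* G) (p : ι → Prop)
    (hp : ∀ g i, p (b (j g) i) ↔ p i) :
    H →* Equiv.Perm {x : X // p (π x)} × Equiv.Perm {i : ι // p i} :=
  (resHom (a.comp j) (fun x => p (π x)) (fun g x => by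
    change p (π (a (j g) x)) ↔ p (π x)
    rw [S.eqv, hp])).prod (resHom (b.comp j) p hp)

theorem rst_fst (S : Sys a b π) {H : Type} [Group H] (j : H →* G) (p : ι → Prop)
    (hp : ∀ g i, p (b (j g) i) ↔ p i) (h : H) (x) :
    (((rst S j p hp h).1 x : {x : X // p (π x)}) : X) = a (j h) x := rfl

theorem rst_snd (S : Sys a b π) {H : Type} [Group H] (j : H →* G) (p : ι → Prop)
    (hp : ∀ g i, p (b (j g) i) ↔ p i) (h : H) (x) :
    (((rst S j p hp h).2 x : {i : ι // p i}) : ι) = b (j h) x := rfl

/-- the first component determines the element -/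
theorem rst_inj (S : Sys a b π) {H : Type} [Group H] (j : H →* G) (p : ι → Prop)
    (hp : ∀ g i, p (b (j g) i) ↔ p i) {K : Type} [Group K] (f : K →* (rst S j p hp).range)
    (hf : Function.Injective f) :
    Function.Injective ((MonoidHom.fst _ _).comp ((rst S j p hp).range.subtype.comp f)) := by
  rw [injective_iff_map_eq_one]
  intro k hk
  obtain ⟨g, hg⟩ := (f k).2
  have h1 : (rst S j p hp g).1 = 1 := by rw [hg]; exact hk
  have h2 : (rst S j p hp g).2 = 1 := by
    ext ⟨i, hi⟩
    obtain ⟨x, rfl⟩ := S.surj i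
    have h3 := rst_fst S j p hp g ⟨x, hi⟩
    rw [rst_snd S j p hp g ⟨π x, hi⟩, ← S.eqv]
    rw [h1] at h3
    change π (a (j g) x) = π x
    rw [← h3]
    rfl
  apply hf
  rw [map_one]
  apply Subtype.ext
  rw [← hg]
  exact Prod.ext h1 h2

/-- subgroups of the range of the restriction -/
theorem rst_sys (S : Sys a b π) {H : Type} [Group H] (j : H →* G) (p : ι → Prop)
    (hp : ∀ g i, p (b (j g) i) ↔ p i) {K : Type} [Group K] (f : K →* (rst S j p hp).range)
    (hf : Function.Injective f) :
    Sys ((MonoidHom.fst _ _).comp ((rst S j p hp).range.subtype.comp f))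
      ((MonoidHom.snd _ _).comp ((rst S j p hp).range.subtype.comp f))
      (fun x : {x : X // p (π x)} => (⟨π x, x.2⟩ : {i // p i})) := by
  refine S.res p _ _ (rst_inj S j p hp f hf) fun k => ?_
  obtain ⟨g, hg⟩ := (f k).2
  refine ⟨j g, fun x => ?_, fun i => ?_⟩
  · rw [← rst_fst S j p hp g x, hg]
    rfl
  · rw [← rst_snd S j p hp g i, hg]
    rfl

end

end Cfsg.Agent.H266.KGV
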